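import Mathlib
import Cfsg.Agent.H43.D1.Families
import Cfsg.Agent.H40.BlockSets
import Cfsg.Agent.H40.CoeffSums
import Cfsg.Agent.H42.MaxIdeal

/-!
# The blocks of full defect when the prime divides the order once
-/

set_option autoImplicit false
set_option maxHeartbeats 1600000
set_option linter.unusedSectionVars false

namespace Cfsg.Agent.H43.D1

open scoped ComplexConjugate

attribute [local instance] Fintype.ofFinite Classical.propDecidable

theorem sum_stdAddChar_right {p : ℕ} [Fact p.Prime] (a : ZMod p) :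
    ∑ c : ZMod p, ZMod.stdAddChar (-(a * c)) = if a = 0 then (p : ℂ) else 0 := by
  have h := sum_stdAddChar (-a)
  simp only [neg_eq_zero] at h
  rw [← h]
  exact Finset.sum_congr rfl fun c _ => by congr 1; ring

namespace Setup

variable {p : ℕ} [hp : Fact p.Prime] {G : Type*} [Group G] [Finite G] (S : Setup p G)

theorem sv_zero_eq (χ : Cfsg.IrrCharacter G) (θ : Cfsg.IrrCharacter S.V) :
    S.sv χ θ 0 = (p : ℂ) * S.mv χ θ 0 - ∑ c : (ZMod p)ˣ, (S.av χ θ (c : ZMod p) : ℂ) := by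
  have hp0 : (p : ℂ) ≠ 0 := Nat.cast_ne_zero.2 hp.out.ne_zero
  have h1 : ∑ c : ZMod p, (S.mv χ θ c : ℂ) = S.sv χ θ 0 := by
    simp only [← S.mv_spec, Finset.mul_sum]
    rw [Finset.sum_comm]
    simp only [← Finset.mul_sum, sum_stdAddChar_right]
    simp only [mul_ite, mul_zero, Finset.sum_ite_eq', Finset.mem_univ, if_true]
    field_simp
  rw [← sum_zmod_eq_sum_units (fun c => (S.av χ θ c : ℂ)) (by simp [av])]
  simp only [av, Int.cast_sub, Int.cast_natCast, Finset.sum_sub_distrib, h1, Finset.sum_const,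
    Finset.card_univ, ZMod.card, nsmul_eq_mul]
  ring

/-- Outside a family the local data along its orbit vanish. -/
theorem av_eq_zero_of_not_mem {χ : Cfsg.IrrCharacter G} {θ θ' : Cfsg.IrrCharacter S.V}
    (h : θ' ∈ S.orb θ) (hχ : χ ∉ S.supp θ) (c : (ZMod p)ˣ) : S.av χ θ' (c : ZMod p) = 0 := by
  obtain ⟨l, -, rfl⟩ := Finset.mem_image.1 h
  rw [← S.supp_twist θ l] at hχ
  simp only [mem_supp, not_exists, not_not] at hχ
  exact hχ c

theorem av_eq_zero_of_not_mem_orb {χ : Cfsg.IrrCharacter G} {θ θ' : Cfsg.IrrCharacter S.V}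
    (hχ : χ ∈ S.supp θ) (h : θ' ∉ S.orb θ) (c : (ZMod p)ˣ) : S.av χ θ' (c : ZMod p) = 0 := by
  have hns : χ ∉ S.supp θ' := fun hm => h (S.mem_orb_of_mem_supp hχ hm)
  simp only [mem_supp, not_exists, not_not] at hns
  exact hns c

/-- The degree of a member of a family, modulo `p`. -/
theorem exists_degree_eq {χ : Cfsg.IrrCharacter G} {θ : Cfsg.IrrCharacter S.V} (hχ : χ ∈ S.supp θ) :
    ∃ m : ℕ, χ.1 1 = (p : ℂ) * m -
      ∑ θ' ∈ S.orb θ, θ'.1 1 * ∑ c : (ZMod p)ˣ, (S.av χ θ' (c : ZMod p) : ℂ) := by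
  refine ⟨∑ θ' : Cfsg.IrrCharacter S.V, S.mv χ θ' 0 * Cfsg.charDegree θ'.1, ?_⟩
  have h1 := S.value_eq_sum_sv χ 0 1
  simp only [ZMod.val_zero, pow_zero, OneMemClass.coe_one, one_mul, S.sv_zero_eq, sub_mul,
    Finset.sum_sub_distrib] at h1
  rw [h1]
  congr 1
  · push_cast
    rw [Finset.mul_sum]
    exact Finset.sum_congr rfl fun θ' _ => by rw [← irr_charDegree_spec]; ring
  · refine (Finset.sum_subset (Finset.subset_univ (S.orb θ)) fun θ' _ hθ' => ?_).symm.trans ?_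
    · rw [Finset.sum_eq_zero fun c _ => by rw [S.av_eq_zero_of_not_mem_orb hχ hθ', Int.cast_zero],
        zero_mul]
    · exact Finset.sum_congr rfl fun θ' _ => mul_comm _ _

theorem sum_supp_mul_av {g : G} (hg : ¬ p ∣ orderOf g) {θ θ' : Cfsg.IrrCharacter S.V}
    (h : θ' ∈ S.orb θ) (c : (ZMod p)ˣ) :
    ∑ χ ∈ S.supp θ, χ.1 g * (S.av χ θ' (c : ZMod p) : ℂ) = 0 := by
  rw [Finset.sum_subset (Finset.subset_univ _) fun χ _ hχ => by
    rw [S.av_eq_zero_of_not_mem h hχ, Int.cast_zero, mul_zero]]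
  exact S.sum_mul_av hg θ' _

theorem sum_supp_degree_mul_sing (θ : Cfsg.IrrCharacter S.V) (i : (ZMod p)ˣ) (v : S.V) :
    ∑ χ ∈ S.supp θ, χ.1 1 * χ.1 (S.sing i v) = 0 := by
  simp only [sing, S.value_eq_sum_sv, Finset.mul_sum]
  rw [Finset.sum_comm]
  refine Finset.sum_eq_zero fun θ' _ => ?_
  by_cases h : θ' ∈ S.orb θ
  · simp only [S.sv_eq_neg_sum, mul_neg, neg_mul, Finset.sum_neg_distrib, Finset.mul_sum,
      Finset.sum_mul, neg_eq_zero]
    rw [Finset.sum_comm]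
    refine Finset.sum_eq_zero fun c _ => ?_
    calc ∑ χ ∈ S.supp θ, _ = ∑ χ ∈ S.supp θ, (ZMod.stdAddChar ((i : ZMod p) * (c : ZMod p)) * θ'.1 v) *
          (χ.1 1 * (S.av χ θ' (c : ZMod p) : ℂ)) := Finset.sum_congr rfl fun χ _ => by ring
      _ = 0 := by rw [← Finset.mul_sum, S.sum_supp_mul_av (by simpa using hp.out.not_dvd_one) h,
        mul_zero]
  · exact Finset.sum_eq_zero fun χ hχ => by
      rw [S.sv_eq_zero_of_not_mem_orb hχ h, zero_mul, mul_zero]

variable (M : Ideal Cfsg.AlgInt) [M.IsMaximal]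

/-- The idempotent of a family is locally integral. -/
theorem supp_coeff_mem (hM : Cfsg.IsPModular p M) (θ : Cfsg.IrrCharacter S.V) (g : G) :
    Cfsg.MemLocalRing M (Cfsg.blockCoeff (S.supp θ : Set (Cfsg.IrrCharacter G)) g) := by
  have hdiv : p ∣ Nat.card G := S.orderOf_x ▸ orderOf_dvd_natCard S.x
  have hg' : ¬ p ∣ Nat.card G / p := fun h => S.not_sq (by
    rw [sq, ← Nat.dvd_div_iff_mul_dvd hdiv]
    exact h)
  rw [show Cfsg.blockCoeff (S.supp θ : Set (Cfsg.IrrCharacter G)) g =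
    (Nat.card G : ℂ)⁻¹ * ∑ χ ∈ S.supp θ, χ.1 1 * χ.1 g⁻¹ by
      rw [Cfsg.blockCoeff, finsum_mem_coe_finset]
      simp [H26.irr_inv]]
  by_cases hg : p ∣ orderOf g
  · obtain ⟨w, i, v, hw⟩ := S.exists_conj_sing (orderOf_inv g ▸ hg : p ∣ orderOf g⁻¹)
    simp only [← hw, H26.irr_conj, S.sum_supp_degree_mul_sing, mul_zero]
    exact (H41.localRing M).zero_mem
  have hgi : ¬ p ∣ orderOf g⁻¹ := by rwa [orderOf_inv]
  choose! m hm using fun χ (hχ : χ ∈ S.supp θ) => S.exists_degree_eq hχ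
  have hsum : ∑ χ ∈ S.supp θ, χ.1 1 * χ.1 g⁻¹ =
      (p : ℂ) * ∑ χ ∈ S.supp θ, (m χ : ℂ) * χ.1 g⁻¹ := by
    rw [Finset.sum_congr rfl fun χ hχ => by rw [hm χ hχ, sub_mul, Finset.sum_mul],
      Finset.sum_sub_distrib, Finset.sum_comm, Finset.mul_sum]
    rw [Finset.sum_eq_zero (s := S.orb θ) fun θ' hθ' => ?_, sub_zero]
    · exact Finset.sum_congr rfl fun χ _ => by ring
    simp only [Finset.mul_sum, Finset.sum_mul]
    rw [Finset.sum_comm]
    refine Finset.sum_eq_zero fun c _ => ?_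
    calc ∑ χ ∈ S.supp θ, _ = ∑ χ ∈ S.supp θ, θ'.1 1 * (χ.1 g⁻¹ * (S.av χ θ' (c : ZMod p) : ℂ)) :=
          Finset.sum_congr rfl fun χ _ => by ring
      _ = 0 := by rw [← Finset.mul_sum, S.sum_supp_mul_av hgi hθ', mul_zero]
  have hint : IsIntegral ℤ (∑ χ ∈ S.supp θ, (m χ : ℂ) * χ.1 g⁻¹) :=
    IsIntegral.sum _ fun χ _ => (H27.isIntegral_intCast (m χ : ℤ)).mul (irr_isIntegral χ _)
  refine ⟨⟨_, hint⟩, ((Nat.card G / p : ℕ) : Cfsg.AlgInt), H42.natCast_not_mem hM hg', ?_⟩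
  rw [hsum, show (((Nat.card G / p : ℕ) : Cfsg.AlgInt) : ℂ) = ((Nat.card G / p : ℕ) : ℂ) by simp]
  have hp0 : (p : ℂ) ≠ 0 := Nat.cast_ne_zero.2 hp.out.ne_zero
  conv_rhs => rw [← Nat.mul_div_cancel' hdiv, Nat.cast_mul]
  field_simp

include S in
/-- Characters agreeing at regular elements are not separated by an integral idempotent. -/
theorem mem_of_regular_eq (hM : Cfsg.IsPModular p M) {A : Set (Cfsg.IrrCharacter G)}
    (hA : ∀ g, Cfsg.MemLocalRing M (Cfsg.blockCoeff A g)) {χ ψ : Cfsg.IrrCharacter G} (hχ : χ ∈ A)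
    (h : ∀ g : G, ¬ p ∣ orderOf g → ψ.1 g = χ.1 g) : ψ ∈ A := by
  have hzero : ∀ z : G, p ∣ orderOf z → Cfsg.blockCoeff A z = 0 := fun z hz => by
    rw [H40.blockCoeff_eq_sum, H40.sum_mul_conj_eq_zero_of_mem hM hA (x := (1 : G))
      (by simpa using hp.out.not_dvd_one) hz, mul_zero]
  have h1 := H40.sum_blockCoeff_mul_irr A χ 1
  have h2 := H40.sum_blockCoeff_mul_irr A ψ 1
  rw [if_pos hχ] at h1
  by_contra hψ
  rw [if_neg hψ] at h2
  refine H26.irr_one_ne_zero χ (h1.symm.trans (Eq.trans ?_ h2))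
  refine Finset.sum_congr rfl fun z _ => ?_
  rw [mul_one]
  by_cases hz : p ∣ orderOf z
  · rw [hzero z hz, zero_mul, zero_mul]
  · rw [h z hz]

/-- An integral set of constant members of a family is empty. -/
theorem eq_empty_of_const (hM : Cfsg.IsPModular p M) (θ : Cfsg.IrrCharacter S.V)
    {A : Finset (Cfsg.IrrCharacter G)} (hsub : A ⊆ S.supp θ)
    (hA : ∀ g, Cfsg.MemLocalRing M (Cfsg.blockCoeff (A : Set (Cfsg.IrrCharacter G)) g))
    (b : Cfsg.IrrCharacter G → ℤ) (hb : ∀ χ ∈ A, b χ * b χ = 1)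
    (hab : ∀ χ ∈ A, ∀ c : (ZMod p)ˣ, S.av χ θ (c : ZMod p) = b χ) (hcard : A.card < p) :
    A = ∅ := by
  set K : ℂ := ∑ θ' ∈ S.orb θ, θ'.1 1 with hK
  have hK0 : K ≠ 0 := by
    have : K = ((∑ θ' ∈ S.orb θ, Cfsg.charDegree θ'.1 : ℕ) : ℂ) := by
      rw [hK, Nat.cast_sum]
      exact Finset.sum_congr rfl fun θ' _ => irr_charDegree_spec θ'
    rw [this, Nat.cast_ne_zero]
    exact (Finset.sum_pos (fun θ' _ => irr_charDegree_pos θ')
      ⟨θ, Finset.mem_image.2 ⟨1, Finset.mem_univ _, kerTwist_one S.act θ⟩⟩).ne'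
  have hz : ∑ c : (ZMod p)ˣ, ZMod.stdAddChar ((((1 : (ZMod p)ˣ)) : ZMod p) * (c : ZMod p)) = (-1 : ℂ) := by
    have h := sum_zmod_eq_sum_units (p := p) (fun c => ZMod.stdAddChar c - if c = 0 then (1 : ℂ) else 0)
      (by simp [AddChar.map_zero_eq_one])
    rw [Finset.sum_sub_distrib, Finset.sum_sub_distrib] at h
    have h' := sum_stdAddChar (p := p) 1
    simp only [mul_one, one_ne_zero, if_false] at h'
    simp [h', Finset.sum_ite_eq'] at h
    simpa using h.symm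
  have hval : ∀ χ ∈ A, χ.1 (S.sing 1 1) = (b χ : ℂ) * K := by
    intro χ hχ
    rw [sing, S.value_eq_sum_sv, hK, Finset.mul_sum, ← Finset.sum_subset (Finset.subset_univ (S.orb θ))
      fun θ' _ h => by rw [S.sv_eq_zero_of_not_mem_orb (hsub hχ) h, zero_mul]]
    refine Finset.sum_congr rfl fun θ' h => ?_
    obtain ⟨l, -, rfl⟩ := Finset.mem_image.1 h
    rw [S.sv_eq_neg_sum]
    simp only [S.av_twist, ← Units.val_mul ((S.act l)⁻¹), hab χ hχ, ← Finset.mul_sum]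
    rw [hz]
    ring
  have hrel : ∀ g : G, ¬ p ∣ orderOf g → ∑ χ ∈ A, (b χ : ℂ) * χ.1 g = 0 := by
    intro g hg
    have h := H40.sum_mul_conj_eq_zero_of_mem hM hA hg (S.dvd_orderOf_sing 1 1)
    rw [Finset.sum_congr (s₂ := A) (g := fun χ => conj K * ((b χ : ℂ) * χ.1 g)) (by ext; simp)
      fun χ hχ => by rw [hval χ hχ, map_mul, map_intCast]; ring, ← Finset.mul_sum] at h
    exact (mul_eq_zero.1 h).resolve_left (by simpa using hK0)
  have hsv : ∑ χ ∈ A, (b χ : ℂ) * S.sv χ θ 0 = 0 := by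
    simp only [sv, Cfsg.classInner, Finset.mul_sum]
    rw [Finset.sum_comm]
    refine Finset.sum_eq_zero fun v _ => ?_
    calc ∑ χ ∈ A, _ = ∑ χ ∈ A, ((Nat.card S.V : ℂ)⁻¹ * conj (θ.1 v)) *
          ((b χ : ℂ) * χ.1 (S.x ^ (0 : ZMod p).val * ((v : S.L) : G))) :=
          Finset.sum_congr rfl fun χ _ => by ring
      _ = 0 := by
        rw [← Finset.mul_sum, hrel _ (by simpa using S.not_dvd_orderOf_L (v : S.L)), mul_zero]
  have hint : ∑ χ ∈ A, (p : ℤ) * (b χ * S.mv χ θ 0) = (A.card : ℤ) * ((p - 1 : ℕ) : ℤ) := by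
    rw [← Int.cast_inj (α := ℂ), Int.cast_sum, ← sub_eq_zero, ← hsv]
    push_cast
    rw [← nsmul_eq_mul A.card, ← Finset.sum_const, ← Finset.sum_sub_distrib]
    refine Finset.sum_congr rfl fun χ hχ => ?_
    simp only [S.sv_zero_eq, hab χ hχ, Finset.sum_const, Finset.card_univ, ZMod.card_units,
      nsmul_eq_mul]
    have : (b χ : ℂ) * (b χ : ℂ) = 1 := by exact_mod_cast hb χ hχ
    linear_combination ((p - 1 : ℕ) : ℂ) * this
  have hdvd : p ∣ A.card := by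
    have h : (p : ℤ) ∣ (A.card : ℤ) * ((p - 1 : ℕ) : ℤ) :=
      hint ▸ Finset.dvd_sum fun χ _ => dvd_mul_right _ _
    refine ((hp.out.dvd_mul).1 (by exact_mod_cast h)).resolve_right fun h' => ?_
    have := Nat.le_of_dvd (Nat.sub_pos_of_lt hp.out.one_lt) h'
    have := hp.out.one_lt
    omega
  exact Finset.card_eq_zero.1 (Nat.eq_zero_of_dvd_of_lt hdvd hcard)

include S in
/-- The structure of a block of positive defect. -/
theorem exists_exceptional (hM : Cfsg.IsPModular p M) {B : Set (Cfsg.IrrCharacter G)}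
    (hB : Cfsg.IsPBlock M B) (hd : 0 < Cfsg.blockDefect p B) :
    ∃ Y : Set (Cfsg.IrrCharacter G), Y ⊆ B ∧ Y.Nonempty ∧
      (∀ θ ∈ Y, ∀ ψ, (∃ u : (ZMod p)ˣ, IsConjBy θ u ψ) ↔ ψ ∈ Y) ∧
      (∀ χ ∈ B, χ ∉ Y → ∀ (u : (ZMod p)ˣ) ψ, IsConjBy χ u ψ → ψ = χ) ∧
      Nat.card Y ∣ p - 1 ∧ Nat.card B = Nat.card Y + (p - 1) / Nat.card Y ∧
      ∃ δ : Cfsg.IrrCharacter G → ℤ, (∀ χ ∈ B, δ χ = 1 ∨ δ χ = -1) ∧ ∀ g : G, ¬ p ∣ orderOf g →
        ∀ θ ∈ Y, (∑ᶠ χ ∈ B \ Y, (δ χ : ℂ) * χ.1 g) + (δ θ : ℂ) * θ.1 g = 0 := by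
  -- a member of degree prime to `p`
  obtain ⟨χ₀, hχ₀B, hχ₀⟩ : ∃ χ₀ ∈ B, ¬ p ∣ Cfsg.charDegree χ₀.1 := by
    by_contra hne
    simp only [not_exists, not_and, not_not] at hne
    rw [Cfsg.blockDefect] at hd
    have hne' : ((fun χ : Cfsg.IrrCharacter G => (Cfsg.charDegree χ.1).factorization p) '' B).Nonempty := by
      obtain ⟨χ, rfl⟩ := hB
      exact ⟨_, χ, (H41.sameBlock_iff_omegaBar χ χ).2 rfl, rfl⟩
    obtain ⟨χ, hχ, hmin⟩ := Nat.sInf_mem hne'
    rw [← hmin] at hd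
    have h1 : 1 ≤ (Cfsg.charDegree χ.1).factorization p :=
      hp.out.factorization_pos_of_dvd (irr_charDegree_pos χ).ne' (hne χ hχ)
    have h2 : (Nat.card G).factorization p ≤ 1 := by
      by_contra h
      exact S.not_sq ((hp.out.pow_dvd_iff_le_factorization Nat.card_pos.ne').2 (by omega))
    simp only at hd
    omega
  obtain ⟨θ, hθ⟩ := S.exists_mem_supp hχ₀
  obtain ⟨e, ε, b, he, hε, hbe, hav, hb⟩ := (S.gram_av θ).2 (S.count_main.2.1 θ)
  have hε0 : ε ≠ 0 := by rcases hε with rfl | rfl <;> norm_num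
  set Y := Finset.univ.image e with hY
  have hYc : Y.card = S.tN θ := by
    rw [hY, Finset.card_image_of_injective _ he, Finset.card_univ, tN, Nat.card_eq_fintype_card]
  have heF : ∀ j, e j ∈ S.supp θ := fun j => S.mem_supp.2 ⟨Quotient.out j, by
    rw [hav, hbe, zero_add, QuotientGroup.out_eq', if_pos rfl]; exact hε0⟩
  have hYF : Y ⊆ S.supp θ := fun χ hχ => by
    obtain ⟨j, -, rfl⟩ := Finset.mem_image.1 hχ
    exact heF j
  have hout : ∀ χ, χ ∉ Y → ∀ c : (ZMod p)ˣ, S.av χ θ (c : ZMod p) = b χ := fun χ hχ c => by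
    have hne : e (QuotientGroup.mk c) ≠ χ := fun h =>
      hχ (h ▸ Finset.mem_image_of_mem e (Finset.mem_univ _))
    rw [hav, if_neg hne, add_zero]
  have hb1 : ∀ χ ∈ S.supp θ, χ ∉ Y → b χ = 1 ∨ b χ = -1 := fun χ hχ hn => by
    obtain ⟨c, hc⟩ := S.mem_supp.1 hχ
    rw [hout χ hn] at hc
    exact (hb χ).resolve_left hc
  have hYc' : (S.supp θ \ Y).card = S.fN θ := by
    rw [Finset.card_sdiff_of_subset hYF, S.count_main.2.1 θ, hYc, Nat.add_sub_cancel_left]
  -- conjugation of the exceptional members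
  have hconj : ∀ (i : (ZMod p)ˣ ⧸ stabImage S.act θ) u ψ, IsConjBy (e i) u ψ →
      ψ = e (QuotientGroup.mk u * i) := by
    intro i u ψ h
    rcases subsingleton_or_nontrivial ((ZMod p)ˣ ⧸ stabImage S.act θ) with hJ | hJ
    · rw [S.eq_of_isConjBy_of_const h (heF i) ε fun c => by
        rw [hav, hbe, zero_add, if_pos (congrArg e (Subsingleton.elim _ i))]]
      exact congrArg e (Subsingleton.elim _ _)
    have hψ : ∀ c : (ZMod p)ˣ, S.av ψ θ (c : ZMod p) =
        if QuotientGroup.mk c = QuotientGroup.mk u * i then ε else 0 := fun c => by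
      rw [S.av_of_isConjBy h, hav, hbe, zero_add]
      simp only [he.eq_iff, QuotientGroup.mk_mul, QuotientGroup.mk_inv, inv_mul_eq_iff_eq_mul]
    by_contra hne
    have h1 := hψ (Quotient.out (QuotientGroup.mk u * i))
    obtain ⟨j, hj⟩ := exists_ne (QuotientGroup.mk u * i : (ZMod p)ˣ ⧸ stabImage S.act θ)
    have h2 := hψ (Quotient.out j)
    rw [hav, QuotientGroup.out_eq', if_pos rfl, if_neg (fun h => hne h.symm), add_zero] at h1
    rw [hav, QuotientGroup.out_eq', if_neg hj] at h2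
    by_cases hje : e j = ψ
    · rw [if_pos hje, ← hje, hbe] at h2
      exact hε0 (by simpa using h2)
    · rw [if_neg hje, add_zero, h1] at h2
      exact hε0 h2
  -- the block is the whole family
  have hFmem := S.supp_coeff_mem M hM θ
  have hBF : B ⊆ (S.supp θ : Set (Cfsg.IrrCharacter G)) := fun χ hχ =>
    H40.mem_of_sameBlock_of_coeff_mem hFmem (Finset.mem_coe.2 hθ)
      ((H41.sameBlock_iff_omegaBar χ₀ χ).2 (H41.omegaBar_eq_of_mem hB hχ₀B hχ))
  have hBmem : ∀ g, Cfsg.MemLocalRing M (Cfsg.blockCoeff B g) := fun g => H41.blockCoeff_mem hB g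
  set A := (S.supp θ).filter (· ∉ B) with hA
  have hAmem : ∀ g, Cfsg.MemLocalRing M (Cfsg.blockCoeff (A : Set (Cfsg.IrrCharacter G)) g) := by
    intro g
    have h : Cfsg.blockCoeff (A : Set (Cfsg.IrrCharacter G)) g =
        Cfsg.blockCoeff (S.supp θ : Set (Cfsg.IrrCharacter G)) g - Cfsg.blockCoeff B g := by
      simp only [H40.blockCoeff_eq_sum, ← mul_sub]
      congr 1
      rw [eq_sub_iff_add_eq, ← Finset.sum_union]
      · refine Finset.sum_congr ?_ fun _ _ => rfl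
        ext χ
        simp only [hA, Finset.mem_union, Finset.mem_filter, Finset.mem_univ, true_and, Finset.mem_coe]
        exact ⟨fun h => h.elim (·.1) (fun h => hBF h), fun h => by tauto⟩
      · rw [Finset.disjoint_left]
        intro χ h1 h2
        simp only [hA, Finset.mem_filter, Finset.mem_univ, true_and, Finset.mem_coe] at h1 h2
        exact h1.2 h2
    rw [h]
    exact (H41.localRing M).sub_mem (hFmem g) (hBmem g)
  have hsmall : ∀ A' : Finset (Cfsg.IrrCharacter G), A' ⊆ S.supp θ → (∀ χ ∈ A', χ ∉ Y) →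
      (∀ g, Cfsg.MemLocalRing M (Cfsg.blockCoeff (A' : Set (Cfsg.IrrCharacter G)) g)) → A' = ∅ := by
    intro A' hs hn hm
    refine S.eq_empty_of_const M hM θ hs hm b (fun χ hχ => ?_) (fun χ hχ => hout χ (hn χ hχ)) ?_
    · rcases hb1 χ (hs hχ) (hn χ hχ) with h | h <;> rw [h] <;> norm_num
    · refine lt_of_le_of_lt ?_ (S.fN_lt θ)
      rw [← hYc']
      exact Finset.card_le_card fun χ hχ => Finset.mem_sdiff.2 ⟨hs hχ, hn χ hχ⟩
  obtain ⟨j₀⟩ : Nonempty ((ZMod p)ˣ ⧸ stabImage S.act θ) := inferInstance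
  have hsame : ∀ j, ∀ g : G, ¬ p ∣ orderOf g → (e j).1 g = (e j₀).1 g := by
    intro j g hg
    obtain ⟨-, ψ, -, -, hψ⟩ := S.exists_isConjBy (e j₀) (Quotient.out (j * j₀⁻¹))
    have hval := S.value_eq_of_isConjBy hψ hg
    rwa [hconj _ _ _ hψ, QuotientGroup.out_eq', inv_mul_cancel_right] at hval
  have he0B : e j₀ ∈ B := by
    by_contra hne
    have hB' : B.toFinset = ∅ := by
      refine hsmall B.toFinset (fun χ hχ => hBF (Set.mem_toFinset.1 hχ)) (fun χ hχ hY' => ?_)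
        (by simpa using hBmem)
      obtain ⟨j, -, rfl⟩ := Finset.mem_image.1 hY'
      exact hne (S.mem_of_regular_eq M hM hBmem (Set.mem_toFinset.1 hχ)
        fun g hg => (hsame j g hg).symm)
    exact Finset.notMem_empty χ₀ (hB' ▸ Set.mem_toFinset.2 hχ₀B)
  have hYB : ∀ j, e j ∈ B := fun j => S.mem_of_regular_eq M hM hBmem he0B (hsame j)
  have hA0 : A = ∅ := hsmall A (Finset.filter_subset _ _) (fun χ hχ hY' => by
    obtain ⟨j, -, rfl⟩ := Finset.mem_image.1 hY'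
    exact (Finset.mem_filter.1 hχ).2 (hYB j)) hAmem
  have hBeq : B = (S.supp θ : Set (Cfsg.IrrCharacter G)) := Set.Subset.antisymm hBF fun χ hχ =>
    by_contra fun hn => Finset.notMem_empty χ (hA0 ▸ Finset.mem_filter.2 ⟨Finset.mem_coe.1 hχ, hn⟩)
  subst hBeq
  refine ⟨(Y : Set (Cfsg.IrrCharacter G)), Finset.coe_subset.2 hYF, ⟨e j₀, ?_⟩, ?_, ?_, ?_, ?_,
    fun χ => if χ ∈ Y then ε else b χ, ?_, ?_⟩
  · exact Finset.mem_coe.2 (Finset.mem_image_of_mem e (Finset.mem_univ j₀))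
  · rintro χ hχ ψ
    obtain ⟨i, -, rfl⟩ := Finset.mem_image.1 (Finset.mem_coe.1 hχ)
    constructor
    · rintro ⟨u, hu⟩
      rw [hconj i u ψ hu]
      exact Finset.mem_coe.2 (Finset.mem_image_of_mem e (Finset.mem_univ _))
    · intro hψ
      obtain ⟨j, -, rfl⟩ := Finset.mem_image.1 (Finset.mem_coe.1 hψ)
      obtain ⟨-, ψ', -, -, hψ'⟩ := S.exists_isConjBy (e i) (Quotient.out (j * i⁻¹))
      refine ⟨Quotient.out (j * i⁻¹), ?_⟩
      have := hconj _ _ _ hψ'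
      rw [QuotientGroup.out_eq', inv_mul_cancel_right] at this
      exact this ▸ hψ'
  · intro χ hχ hn u ψ h
    exact S.eq_of_isConjBy_of_const h (Finset.mem_coe.1 hχ) (b χ) (hout χ fun h' => hn (Finset.mem_coe.2 h'))
  · rw [Nat.card_coe_set_eq, Set.ncard_coe_finset, hYc, ← S.tN_mul_fN θ]
    exact dvd_mul_right _ _
  · rw [Nat.card_coe_set_eq, Nat.card_coe_set_eq, Set.ncard_coe_finset, Set.ncard_coe_finset, hYc,
      S.count_main.2.1 θ, ← S.tN_mul_fN θ, Nat.mul_div_cancel_left _ (S.tN_pos θ)]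
  · intro χ hχ
    by_cases h : χ ∈ Y
    · simp only [if_pos h]; exact hε
    · simp only [if_neg h]; exact hb1 χ (Finset.mem_coe.1 hχ) h
  · intro g hg χ hχ
    obtain ⟨j, -, rfl⟩ := Finset.mem_image.1 (Finset.mem_coe.1 hχ)
    rw [← Finset.coe_sdiff, finsum_mem_coe_finset]
    have h := S.sum_mul_av hg θ ((Quotient.out j : (ZMod p)ˣ) : ZMod p)
    have hsplit : ∀ ψ : Cfsg.IrrCharacter G,
        ψ.1 g * (S.av ψ θ ((Quotient.out j : (ZMod p)ˣ) : ZMod p) : ℂ) =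
          (b ψ : ℂ) * ψ.1 g + if e j = ψ then (ε : ℂ) * ψ.1 g else 0 := fun ψ => by
      rw [hav, QuotientGroup.out_eq', Int.cast_add]
      split_ifs <;> push_cast <;> ring
    rw [Finset.sum_congr rfl fun ψ _ => hsplit ψ, Finset.sum_add_distrib, Finset.sum_ite_eq,
      if_pos (Finset.mem_univ _), ← Finset.sum_subset (Finset.subset_univ (S.supp θ \ Y))
        fun ψ _ hψ => ?_] at h
    · have hjY : e j ∈ Y := Finset.mem_image_of_mem e (Finset.mem_univ j)
      simp only [if_pos hjY]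
      refine Eq.trans ?_ h
      congr 1
      exact Finset.sum_congr rfl fun ψ hψ => by rw [if_neg (Finset.mem_sdiff.1 hψ).2]
    · rcases em (ψ ∈ Y) with h' | h'
      · obtain ⟨i, -, rfl⟩ := Finset.mem_image.1 h'
        rw [hbe, Int.cast_zero, zero_mul]
      · have : ψ ∉ S.supp θ := fun hm => hψ (Finset.mem_sdiff.2 ⟨hm, h'⟩)
        simp only [mem_supp, not_exists, not_not] at this
        rw [← hout ψ h' 1, this, Int.cast_zero, zero_mul]

end Setup

end Cfsg.Agent.H43.D1
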